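import Cfsg.Agent.H225.Mono.End
import Cfsg.Agent.H82.Mono.Comb6

/-!
# S2187, X4, piece M8c: the end for `γ = ε ρ` (helper897)

* `S0_gen` : the roots trivial on a hyperplane of a group of toral elements of order `p`;
* `tau_ch`, `tau_fix` : `τ` acts as `ρ` on `T[3]`;
* `end_E6` : `γ = ε ρ`, `E₆`: if the `r`-elements of `⟨X (± a), X (± ρ a)⟩`, fixed by `τ`, are in `HZ`, for every root `a`,
  then `GamY m.ι 3 E = ⊤`.
-/

set_option autoImplicit false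
set_option linter.unusedSectionVars false

namespace Cfsg.Agent.H897.Mono.E6

open CoxeterSystem Cfsg Cfsg.Lie Cfsg.Lie.ChevalleyDatum
open Cfsg.Agent.ChevalleyStructure Cfsg.Agent.ChevalleyStructure.Elts Cfsg.Agent.ChevalleyStructure.CoxeterGeom
  Cfsg.Agent.ChevalleyStructure.CoxeterGeomTypes Cfsg.Agent.ChevalleyStructure.NPerm
open Cfsg.Agent.Tits.Roots Cfsg.Agent.Tits.Core Cfsg.Agent.Nodes Cfsg.Agent.Nodes.Reps Cfsg.Agent.Nodes.BNOf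
  Cfsg.Agent.Nodes.SubComb Cfsg.Agent.Nodes.RGDChev Cfsg.Agent.Nodes.Bruhat Cfsg.Agent.Nodes.Coroot
open Cfsg.Agent.KFacts.RgdField Cfsg.Agent.KFacts.RgdChevCoord
open Cfsg.Agent.BpExc Cfsg.Agent.BpExc.TorCent Cfsg.Agent.BpExc.TorChev Cfsg.Agent.BpExc.Tow
  Cfsg.Agent.BpExc.TowChev Cfsg.Agent.BpExc.Fr Cfsg.Agent.BpExc.LangFr
open Cfsg.Agent.H469.Exc Cfsg.Agent.H316.U6 Cfsg.Agent.H818.Gen Cfsg.Agent.H818.Mono Cfsg.Agent.H696.GmnToral
open Cfsg.Agent.H225.Gen Cfsg.Agent.H496.Mono Cfsg.Agent.H225.Mono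
open Cfsg.Agent.H818.StrP.UTab Cfsg.Agent.H818.StrP.UAct
open Cfsg.Agent.H795.SetCent
open Cfsg.Agent.H129.TorusChar (cX IsMC cX_root cX_mul cX_pow cX_one cX_inj isMC_cX exists_cX)
open Cfsg.Agent.H720.TwFr (permE rho6)
open Cfsg.Agent.H82.Mono (dl dl_eq dl_dl dl_neg R6)

universe v

section Gen

variable {D : ChevalleyDatum} {l : ℕ} {M : CoxeterMatrix (Fin l)} (hp : IsType D l M) {r : ℕ} [hr : Fact r.Prime]
local notation "cs" => M.toCoxeterSystem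

/-- **The roots trivial on a hyperplane of a group of toral elements of order `p`.** -/
theorem S0_gen {p : ℕ} (hpp : p.Prime) {ι : Type*} {E' F : Subgroup ↥(D.group (KK r))} (hE' : E' ≤ TP hp r p)
    (hF : F ≤ E') (hi : F.relIndex E' = p) {ζ : KK r} (hζ : IsPrimitiveRoot ζ p) {s : ι → ↥(D.group (KK r))}
    {ℓ : ι → (Fin l → ℤ) → ℤ} (hs : ∀ i, s i ∈ E') (hsx : ∀ i x, cX hp (s i) x = ζ ^ ℓ i x) {a b : Fin l → ℤ}
    (ha : a ∈ S0 hp r F) (hb : b ∈ S0 hp r F) (hne : ∃ i, ¬ (p : ℤ) ∣ ℓ i a) :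
    ∃ j : ℕ, ∀ i, (p : ℤ) ∣ ℓ i b - j * ℓ i a := by
  have hone : ∀ z : ℤ, ζ ^ z = 1 ↔ (p : ℤ) ∣ z := fun z => hζ.zpow_eq_one_iff_dvd z
  have hζ0 : ζ ≠ 0 := hζ.ne_zero hpp.ne_zero
  -- an element outside `F`
  obtain ⟨t₀, ht₀, ht₀F⟩ : ∃ t₀ ∈ E', t₀ ∉ F := by
    by_contra hcon
    push Not at hcon
    have h1 : F.relIndex E' = 1 := Subgroup.relIndex_eq_one.2 hcon
    rw [hi] at h1
    exact hpp.one_lt.ne' h1
  -- subgroups containing `F` and `t₀` contain `E'`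
  have hsup : ∀ L : Subgroup ↥(D.group (KK r)), F ≤ L → t₀ ∈ L → E' ≤ L := by
    intro L h1 h2
    have h3 : F ≤ F ⊔ Subgroup.zpowers t₀ := le_sup_left
    have h4 : F ⊔ Subgroup.zpowers t₀ ≤ E' := sup_le hF (by rw [Subgroup.zpowers_le]; exact ht₀)
    have h5 := Subgroup.relIndex_mul_relIndex F (F ⊔ Subgroup.zpowers t₀) E' h3 h4
    rw [hi] at h5
    have h6 : F.relIndex (F ⊔ Subgroup.zpowers t₀) ≠ 1 := by
      intro h7
      rw [Subgroup.relIndex_eq_one] at h7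
      exact ht₀F (h7 (Subgroup.mem_sup_right (Subgroup.mem_zpowers t₀)))
    rcases (Nat.dvd_prime hpp).1 ⟨_, h5.symm⟩ with h7 | h7
    · exact absurd h7 h6
    · rw [h7] at h5
      have h8 : (F ⊔ Subgroup.zpowers t₀).relIndex E' = 1 :=
        Nat.eq_of_mul_eq_mul_left hpp.pos (by rw [h5, mul_one])
      rw [Subgroup.relIndex_eq_one] at h8
      exact h8.trans (sup_le h1 (by rw [Subgroup.zpowers_le]; exact h2))
  have hcm : ∀ (c : Fin l → ℤ) (j : ℤ) (x y : ↥(D.group (KK r))), x ∈ TT D (KK r) → y ∈ TT D (KK r) →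
      cX hp (x * y) c ^ j = cX hp x c ^ j * cX hp y c ^ j := by
    intro c j x y hx hy
    rw [cX_mul hp hx hy, mul_zpow]
  -- the subgroup of the elements with `b = j a`
  let L : ℤ → Subgroup ↥(D.group (KK r)) := fun j =>
    { carrier := {x | x ∈ TT D (KK r) ∧ cX hp x b = cX hp x a ^ j}
      one_mem' := ⟨one_mem _, by rw [cX_one, cX_one, one_zpow]⟩
      mul_mem' := by
        rintro x y ⟨hx, hx'⟩ ⟨hy, hy'⟩
        exact ⟨mul_mem hx hy, by rw [cX_mul hp hx hy, hx', hy', hcm a j x y hx hy]⟩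
      inv_mem' := by
        rintro x ⟨hx, hx'⟩
        refine ⟨inv_mem hx, ?_⟩
        have h1 : cX hp x⁻¹ b * cX hp x b = 1 := by
          rw [← cX_mul hp (inv_mem hx) hx, inv_mul_cancel, cX_one]
        have h2 : cX hp x⁻¹ a ^ j * cX hp x a ^ j = 1 := by
          rw [← hcm a j _ _ (inv_mem hx) hx, inv_mul_cancel, cX_one, one_zpow]
        rw [← hx', ← h1] at h2
        exact (mul_right_cancel₀ ((isMC_cX hp hx).ne_zero b) h2).symm }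
  have hFT : ∀ x ∈ F, x ∈ TT D (KK r) := fun x hx => (hE' (hF hx)).1
  have hFa : ∀ x ∈ F, cX hp x a = 1 := fun x hx => by rw [cX_root hp cs (hFT x hx) ha.1]; exact ha.2 x hx
  have hFb : ∀ x ∈ F, cX hp x b = 1 := fun x hx => by rw [cX_root hp cs (hFT x hx) hb.1]; exact hb.2 x hx
  have ht₀' := hE' ht₀
  have hpw : ∀ c : Fin l → ℤ, cX hp t₀ c ^ p = 1 := fun c => by
    rw [← cX_pow hp ht₀'.1, ht₀'.2, cX_one]
  have ha1 : cX hp t₀ a ≠ 1 := by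
    intro h1
    obtain ⟨k, hk⟩ := hne
    let L' : Subgroup ↥(D.group (KK r)) :=
      { carrier := {x | x ∈ TT D (KK r) ∧ cX hp x a = 1}
        one_mem' := ⟨one_mem _, cX_one hp a⟩
        mul_mem' := by
          rintro x y ⟨hx, hx'⟩ ⟨hy, hy'⟩
          exact ⟨mul_mem hx hy, by rw [cX_mul hp hx hy, hx', hy', one_mul]⟩
        inv_mem' := by
          rintro x ⟨hx, hx'⟩
          refine ⟨inv_mem hx, ?_⟩
          have h1 : cX hp x⁻¹ a * cX hp x a = 1 := by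
            rw [← cX_mul hp (inv_mem hx) hx, inv_mul_cancel, cX_one]
          rwa [hx', mul_one] at h1 }
    have h2 : s k ∈ L' := hsup L' (fun x hx => ⟨hFT x hx, hFa x hx⟩) ⟨ht₀'.1, h1⟩ (hs k)
    have h3 : cX hp (s k) a = 1 := h2.2
    rw [hsx, hone] at h3
    exact hk h3
  have hpf : Fact p.Prime := ⟨hpp⟩
  have hne0 : NeZero p := ⟨hpp.ne_zero⟩
  have hprim : IsPrimitiveRoot (cX hp t₀ a) p := by
    rw [IsPrimitiveRoot.iff_orderOf]
    exact (orderOf_eq_prime (hpw a) ha1)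
  obtain ⟨j, -, hj⟩ := hprim.eq_pow_of_pow_eq_one (hpw b)
  refine ⟨j, fun k => ?_⟩
  have h2 : s k ∈ L j := hsup (L j) (fun x hx => ⟨hFT x hx, by rw [hFa x hx, hFb x hx, one_zpow]⟩)
    ⟨ht₀'.1, by rw [zpow_natCast, hj]⟩ (hs k)
  have h3 : cX hp (s k) b = cX hp (s k) a ^ (j : ℤ) := h2.2
  rw [hsx, hsx, ← zpow_mul] at h3
  rw [← hone, zpow_sub₀ hζ0, h3, mul_comm, div_self (zpow_ne_zero _ hζ0)]

end Gen

/-! ### `E₆` -/

/-- the four coordinates on the fixed part of `T[3]` -/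
def ll : Fin 4 → (Fin 6 → ℤ) → ℤ := ![fun x => x 1, fun x => x 3, fun x => x 0 + x 5, fun x => x 2 + x 4]

theorem t_ne : ∀ i < 72, ∃ m : Fin 4, ll m (vec chevE6 6 i) % 3 ≠ 0 := by decide +kernel

/-- the condition of the table check -/
def chkE (x y : Fin 6 → ℤ) (k : ℤ) : Prop :=
  (∀ m : Fin 4, (ll m y - k * ll m x) % 3 = 0) → y = x ∨ y = -x ∨ y = dl x ∨ y = -dl x

instance (x y : Fin 6 → ℤ) (k : ℤ) : Decidable (chkE x y k) := by unfold chkE; infer_instance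

theorem t_end : ∀ i < 72, ∀ j < 72, chkE (vec chevE6 6 i) (vec chevE6 6 j) 0 ∧
    chkE (vec chevE6 6 i) (vec chevE6 6 j) 1 ∧ chkE (vec chevE6 6 i) (vec chevE6 6 j) 2 := by decide +kernel

section E

variable {M : CoxeterMatrix (Fin 6)} {hp : IsType chevE6 6 M} {r : ℕ} [hr : Fact r.Prime]
local notation "cs" => M.toCoxeterSystem


/-- `τ` acts as `ρ` on `T[3]` -/
theorem tau_ch {e : ℕ} {τ : MulAut ↥(chevE6.group (KK r))} {γ : (Fin 6 → ℤ) ≃+ (Fin 6 → ℤ)} (hτ : IsFrob r e τ)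
    (F : Fr cs hp.isCartan (TT chevE6 (KK r)) (XX chevE6 6 (KK r)) τ γ) {ε : ℤ} {p : ℕ} (hε : Eps p (r ^ e) ε)
    (hγ : ∀ x, γ x = ε • permE rho6 x) {t : ↥(chevE6.group (KK r))} (ht : t ∈ TP hp r p) {a : Fin 6 → ℤ}
    (ha : IsRoot cs hp.isCartan a) : cX hp (τ t) (permE rho6 a) = cX hp t a := by
  have hpw : ∀ c : Fin 6 → ℤ, cX hp t c ^ p = 1 := fun c => by
    rw [← cX_pow hp ht.1, ht.2, cX_one]
  have h0 := (isMC_cX hp ht.1).ne_zero a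
  have hga := (F.root a).2 ha
  have hgn := (F.root (-a)).2 ha.neg
  obtain ⟨h1, h2⟩ := hε
  have hk := locFin r
  obtain ⟨c, hc⟩ := h2
  rcases h1 with rfl | rfl
  · have h3 := fr_ch hp cs hk hτ F ha ht.1
    rw [← cX_root hp cs ((F.tor t).2 ht.1) hga, hγ, one_smul, ← cX_root hp cs ht.1 ha] at h3
    rw [h3, ← zpow_natCast]
    have h4 : ((r ^ e : ℕ) : ℤ) = 1 + (p : ℤ) * c := by rw [← hc]; ring
    rw [h4, zpow_add₀ h0, zpow_one, zpow_mul, zpow_natCast, hpw, one_zpow, mul_one]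
  · have h3 := fr_ch hp cs hk hτ F ha.neg ht.1
    rw [← cX_root hp cs ((F.tor t).2 ht.1) hgn, hγ, map_neg, neg_smul_neg, one_smul, ← cX_root hp cs ht.1 ha.neg,
      (isMC_cX hp ht.1).neg] at h3
    rw [h3, inv_pow, ← zpow_natCast, ← zpow_neg]
    have h4 : -((r ^ e : ℕ) : ℤ) = 1 + (p : ℤ) * (-c) := by
      have h5 : ((r ^ e : ℕ) : ℤ) = (p : ℤ) * c - 1 := by rw [← hc]; ring
      rw [h5]; ring
    rw [h4, zpow_add₀ h0, zpow_one, zpow_mul, zpow_natCast, hpw, one_zpow, mul_one]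

theorem perm_perm (x : Fin 6 → ℤ) : permE rho6 (permE rho6 x) = x := by
  rw [dl_eq, dl_eq, dl_dl]

theorem isRoot_perm {τ : MulAut ↥(chevE6.group (KK r))} {γ : (Fin 6 → ℤ) ≃+ (Fin 6 → ℤ)}
    (F : Fr cs hp.isCartan (TT chevE6 (KK r)) (XX chevE6 6 (KK r)) τ γ) {ε : ℤ} (hε : ε = 1 ∨ ε = -1)
    (hγ : ∀ x, γ x = ε • permE rho6 x) {a : Fin 6 → ℤ} (ha : IsRoot cs hp.isCartan a) :
    IsRoot cs hp.isCartan (permE rho6 a) := by
  rcases hε with rfl | rfl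
  · have h1 := (F.root a).2 ha
    rwa [hγ, one_smul] at h1
  · have h1 := (F.root (-a)).2 ha.neg
    rwa [hγ, map_neg, neg_smul_neg, one_smul] at h1

/-- elements of `T[p]` with `ρ`-invariant characters are fixed by `τ` -/
theorem tau_fix {e : ℕ} {τ : MulAut ↥(chevE6.group (KK r))} {γ : (Fin 6 → ℤ) ≃+ (Fin 6 → ℤ)} (hτ : IsFrob r e τ)
    (F : Fr cs hp.isCartan (TT chevE6 (KK r)) (XX chevE6 6 (KK r)) τ γ) {ε : ℤ} {p : ℕ} (hε : Eps p (r ^ e) ε)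
    (hγ : ∀ x, γ x = ε • permE rho6 x) {t : ↥(chevE6.group (KK r))} (ht : t ∈ TP hp r p)
    (hx : ∀ x, cX hp t (permE rho6 x) = cX hp t x) : τ t = t := by
  refine cX_inj hp ((F.tor t).2 ht.1) ht.1 fun i => ?_
  have hri := isRoot_sr cs hp.isCartan i
  have h1 := tau_ch (hp := hp) hτ F hε hγ ht (isRoot_perm (hp := hp) F hε.1 hγ hri)
  rw [perm_perm, hx] at h1
  exact h1

/-- the fixed part of `T[p]` -/
noncomputable def TF (hp : IsType chevE6 6 M) (r p : ℕ) [Fact r.Prime] (τ : MulAut ↥(chevE6.group (KK r))) :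
    Subgroup ↥(chevE6.group (KK r)) := TP hp r p ⊓ (τ.toMonoidHom.eqLocus (MonoidHom.id _))

theorem mem_TF {p : ℕ} {τ : MulAut ↥(chevE6.group (KK r))} {t : ↥(chevE6.group (KK r))} :
    t ∈ TF hp r p τ ↔ t ∈ TP hp r p ∧ τ t = t := Iff.rfl

theorem TF_el {p : ℕ} {τ : MulAut ↥(chevE6.group (KK r))} : IsElementaryAbelian p (TF hp r p τ) := by
  refine ⟨⟨⟨?_⟩⟩, fun y hy => hy.1.2⟩
  rintro ⟨a, ha⟩ ⟨b, hb⟩
  exact Subtype.ext (TT_comm hp a ha.1.1 b hb.1.1)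

/-- **The coordinate elements of the fixed part of `T[3]`.** -/
theorem exists_four {e : ℕ} {τ : MulAut ↥(chevE6.group (KK r))} {γ : (Fin 6 → ℤ) ≃+ (Fin 6 → ℤ)} (hτ : IsFrob r e τ)
    (F : Fr cs hp.isCartan (TT chevE6 (KK r)) (XX chevE6 6 (KK r)) τ γ) {ε : ℤ} (hε : Eps 3 (r ^ e) ε)
    (hγ : ∀ x, γ x = ε • permE rho6 x) (h3r : 3 ≠ r) :
    ∃ ζ : KK r, IsPrimitiveRoot ζ 3 ∧ ∃ s : Fin 4 → ↥(chevE6.group (KK r)),
      ∀ j, s j ∈ TF hp r 3 τ ∧ ∀ x, cX hp (s j) x = ζ ^ ll j x := by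
  obtain ⟨ζ, hζ, t, ht⟩ := exists_coords hp H129.TorusChar.invC_E6 (by norm_num) Nat.prime_three h3r
  have hζ0 : ζ ≠ 0 := hζ.ne_zero (by norm_num)
  refine ⟨ζ, hζ, ![t 1, t 3, t 0 * t 5, t 2 * t 4], ?_⟩
  have h1 : ∀ j, (![t 1, t 3, t 0 * t 5, t 2 * t 4] : Fin 4 → ↥(chevE6.group (KK r))) j ∈ TP hp r 3 := by
    intro j
    fin_cases j
    · exact (ht 1).1
    · exact (ht 3).1
    · exact mul_mem (ht 0).1 (ht 5).1
    · exact mul_mem (ht 2).1 (ht 4).1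
  have h2 : ∀ j x, cX hp ((![t 1, t 3, t 0 * t 5, t 2 * t 4] : Fin 4 → ↥(chevE6.group (KK r))) j) x = ζ ^ ll j x := by
    intro j x
    fin_cases j
    · exact (ht 1).2 x
    · exact (ht 3).2 x
    · show cX hp (t 0 * t 5) x = ζ ^ (x 0 + x 5)
      rw [cX_mul hp (ht 0).1.1 (ht 5).1.1, (ht 0).2, (ht 5).2, zpow_add₀ hζ0]
    · show cX hp (t 2 * t 4) x = ζ ^ (x 2 + x 4)
      rw [cX_mul hp (ht 2).1.1 (ht 4).1.1, (ht 2).2, (ht 4).2, zpow_add₀ hζ0]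
  refine fun j => ⟨⟨h1 j, tau_fix hτ F hε hγ (h1 j) fun x => ?_⟩, h2 j⟩
  rw [h2, h2]
  congr 1
  rw [dl_eq]
  fin_cases j
  · rfl
  · rfl
  · show x 5 + x 0 = x 0 + x 5
    exact add_comm _ _
  · show x 4 + x 2 = x 2 + x 4
    exact add_comm _ _

/-- **The roots trivial on a hyperplane of the fixed part of `T[3]`.** -/
theorem S0_E6 {e : ℕ} {τ : MulAut ↥(chevE6.group (KK r))} {γ : (Fin 6 → ℤ) ≃+ (Fin 6 → ℤ)} (hτ : IsFrob r e τ)
    (F : Fr cs hp.isCartan (TT chevE6 (KK r)) (XX chevE6 6 (KK r)) τ γ) {ε : ℤ} (hε : Eps 3 (r ^ e) ε)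
    (hγ : ∀ x, γ x = ε • permE rho6 x) (h3r : 3 ≠ r) {F' : Subgroup ↥(chevE6.group (KK r))} (hF : F' ≤ TF hp r 3 τ)
    (hi : F'.relIndex (TF hp r 3 τ) = 3) {a b : Fin 6 → ℤ} (ha : a ∈ S0 hp r F') (hb : b ∈ S0 hp r F') :
    b = a ∨ b = -a ∨ b = permE rho6 a ∨ b = -permE rho6 a := by
  obtain ⟨ζ, hζ, s, hs⟩ := exists_four hτ F hε hγ h3r
  obtain ⟨i, hi', ei⟩ := (isRoot_iff hp cs _).1 ha.1
  obtain ⟨k, hk', ek⟩ := (isRoot_iff hp cs _).1 hb.1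
  have hi72 : i < 72 := lt_of_lt_of_eq hi' (by decide +kernel)
  have hk72 : k < 72 := lt_of_lt_of_eq hk' (by decide +kernel)
  obtain ⟨j, hj⟩ := S0_gen hp Nat.prime_three (E' := TF hp r 3 τ) (fun t ht => (mem_TF.1 ht).1) hF hi hζ (fun i => (hs i).1) (fun i => (hs i).2)
    ha hb (by
      obtain ⟨m, hm⟩ := t_ne i hi72
      refine ⟨m, fun h1 => hm ?_⟩
      rw [ei]
      exact Int.emod_eq_zero_of_dvd h1)
  have h0 : chkE (vec chevE6 6 i) (vec chevE6 6 k) ((j % 3 : ℕ) : ℤ) := by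
    obtain ⟨g0, g1, g2⟩ := t_end i hi72 k hk72
    have h5 : j % 3 = 0 ∨ j % 3 = 1 ∨ j % 3 = 2 := by omega
    rcases h5 with h5 | h5 | h5 <;> rw [h5]
    · exact g0
    · exact g1
    · exact g2
  have h1 := h0 (fun m => by
    rw [ei, ek]
    obtain ⟨c, hc⟩ := hj m
    refine Int.emod_eq_zero_of_dvd ?_
    refine (Dvd.intro (c + (j / 3 : ℕ) * ll m a) ?_)
    have h2 : (j : ℤ) = ((j % 3 : ℕ) : ℤ) + 3 * ((j / 3 : ℕ) : ℤ) := by
      have := Nat.mod_add_div j 3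
      exact_mod_cast this.symm
    have h3 : ll m b = (j : ℤ) * ll m a + ((3 : ℕ) : ℤ) * c := by rw [← hc]; ring
    rw [h3]
    rw [h2]
    push_cast
    ring)
  rw [ei, ek, ← dl_eq] at h1
  exact h1

end E

section Fin

variable {M : CoxeterMatrix (Fin 6)} {hp : IsType chevE6 6 M} {r q : ℕ} [hr : Fact r.Prime] {K₀ : Type v} [Group K₀]

/-- **The end for `E₆`, `γ = ε ρ`.** -/
theorem end_E6 (m : MData hp r q K₀) [IsSimpleGroup K₀] (hq : 3 ≤ q) (h3r : 3 ≠ r)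
    {E : Subgroup ↥(chevE6.group (KK r))} {z : ↥(chevE6.group (KK r))}
    {γ : (Fin 6 → ℤ) ≃+ (Fin 6 → ℤ)} (F : NFrame m E z γ) {ε : ℤ} (hε : Eps 3 q ε)
    (hγ : ∀ x, γ x = ε • permE rho6 x)
    (hS : ∀ a, IsRoot M.toCoxeterSystem hp.isCartan a →
      InS r 6 (MulAut.conj (z⁻¹ * m.σ z) * m.σ) (HZ m 3 E z) {a, -a, permE rho6 a, -permE rho6 a}) :
    GamY m.ι 3 E = ⊤ := by
  have hne : ∀ {D D' : ChevalleyDatum}, D.nroots ≠ D'.nroots → D ≠ D' := fun h e => h (e ▸ rfl)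
  have hfr : IsFrob r m.e (MulAut.conj (z⁻¹ * m.σ z) * m.σ) := m.frob.conj_mul _
  have hεe : Eps 3 (r ^ m.e) ε := by rw [m.hq]; exact hε
  have hfix : ∀ t ∈ TF hp r 3 (MulAut.conj (z⁻¹ * m.σ z) * m.σ), (MulAut.conj (z⁻¹ * m.σ z) * m.σ) t = t :=
    fun t ht => ht.2
  have hfin := finite_frame m hfix
  have hpr : Fact (Nat.Prime 3) := ⟨Nat.prime_three⟩
  refine end_general m hi_E6 hq (fun h1 => absurd h1 (hne (by decide +kernel))) h3r F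
    (E' := TF hp r 3 (MulAut.conj (z⁻¹ * m.σ z) * m.σ)) (fun t ht => (mem_TF.1 ht).1.1) TF_el hfix ?_
    (Or.inl (not_dvd_sq (le_refl 3) hε)) ?_
  · obtain ⟨ζ, hζ, t, ht⟩ := exists_four hfr F.fr hεe hγ h3r
    have h1 := orderOf_dvd_natCard (⟨t 0, (ht _).1⟩ : ↥(TF hp r 3 (MulAut.conj (z⁻¹ * m.σ z) * m.σ)))
    have h2 : orderOf (⟨t 0, (ht _).1⟩ : ↥(TF hp r 3 (MulAut.conj (z⁻¹ * m.σ z) * m.σ))) = 3 := by
      refine orderOf_eq_prime (Subtype.ext (ht _).1.1.2) fun h3 => ?_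
      have h4 : t 0 = 1 := congrArg Subtype.val h3
      have h5 := (ht 0).2 (sr 1)
      have h6 : ll 0 (sr 1) = 1 := by decide +kernel
      rw [h4, cX_one, h6, zpow_one] at h5
      rw [← h5] at hζ
      exact absurd (hζ.eq_orderOf.trans orderOf_one) (by norm_num)
    rw [h2] at h1
    exact Nat.le_of_dvd Nat.card_pos h1
  · intro F' hF' hi u hu hτu hur
    by_cases hne : (S0 hp r F').Nonempty
    · obtain ⟨a, ha⟩ := hne
      refine hS a ha.1 u (RGD.Sup_mono (fun b hb => ?_) hu) hτu hur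
      rcases S0_E6 hfr F.fr hεe hγ h3r hF' hi ha hb with rfl | rfl | rfl | rfl
      · exact Or.inl rfl
      · exact Or.inr (Or.inl rfl)
      · exact Or.inr (Or.inr (Or.inl rfl))
      · exact Or.inr (Or.inr (Or.inr rfl))
    · rw [Set.not_nonempty_iff_eq_empty] at hne
      rw [hne, OppDec.Sup_empty, Subgroup.mem_bot] at hu
      rw [hu]
      exact one_mem _

end Fin

end Cfsg.Agent.H897.Mono.E6
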